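import Cfsg.Agent.Lib.IG.Seven
import Cfsg.Agent.Lib.CIT.Main
import Cfsg.Agent.Lib.CIT.Geo
import Cfsg.Agent.Lib.BSW.SelfNorm

/-!
# The (CIT) case
-/

set_option autoImplicit false

namespace CfsgLib.IG

open Subgroup Cfsg CfsgLib.FT.BGN CfsgLib.FT.U4 CfsgLib.Cit

attribute [local instance] factTwo

variable {K : Type*} [Group K] [Finite K] {P L : Subgroup K} {q : ℕ}

/-- `col_or` with the abelian subgroup inside `N(P)`. -/
theorem cit_col_or (h : Big P L q) : (∀ g, g ∈ Col P L) ∨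
    ∃ D : Subgroup K, D ≤ 𝐍(P) ∧ D ≤ 𝐂(D) ∧ Nat.card D = q ^ 2 - 1 := by
  classical
  refine or_iff_not_imp_left.mpr fun hc => ?_
  obtain ⟨g₀, hg₀⟩ := not_forall.mp hc
  obtain ⟨z, hz, hz1⟩ := h.l.exists_mem
  have hzz := h.l.sq z hz.1
  have hq := h.lt
  have hq2 : 0 < q ^ 2 - 1 := by have : 1 < q ^ 2 := by nlinarith
                                 omega
  set J : Set K := {u | ∃ g ∉ Col P L, g * z * g⁻¹ = u}
  have hJ : ∀ u ∈ J, u * u = 1 ∧ u ≠ 1 := by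
    rintro _ ⟨g, -, rfl⟩
    exact ⟨Invol.conj_mul_self hzz g, conj_ne_one_iff.mpr hz1⟩
  have hJ' : ∀ u ∈ J, u ∉ Col P L := by
    rintro _ ⟨g, hg, rfl⟩ e
    exact hg (h.col_of_conj hz hz1 e)
  set t : Set (K ⧸ 𝐍(P)) := QuotientGroup.mk '' (Col P L)ᶜ
  have h1 : {g | g * z * g⁻¹ ∈ J} = QuotientGroup.mk ⁻¹' t := by
    ext g
    constructor
    · rintro ⟨g', hg', e⟩
      refine ⟨g', hg', QuotientGroup.eq.mpr (h.mem_H hz hz1 ?_)⟩
      have : g'⁻¹ * g * z * (g'⁻¹ * g)⁻¹ = z := by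
        calc _ = g'⁻¹ * (g * z * g⁻¹) * g' := by group
          _ = z := by rw [← e]; group
      exact this.symm ▸ hz.1
    · rintro ⟨g', hg', e⟩
      refine ⟨g, fun e' => hg' ?_, rfl⟩
      simpa using Col.mul e' (one_mem _) (inv_mem (QuotientGroup.eq.mp e))
  have h2 := h.card_conj hz hz1 hJ
  rw [h1, QuotientGroup.card_preimage_mk, h.card_H, mul_assoc,
    Nat.mul_right_inj (by positivity), Nat.card_coe_set_eq, Nat.card_coe_set_eq,
    Set.ncard_eq_toFinset_card t, Set.ncard_eq_toFinset_card J] at h2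
  obtain ⟨c, -, h3⟩ := Finset.exists_le_card_fiber_of_mul_le_card_of_maps_to
    (f := (QuotientGroup.mk : K → K ⧸ 𝐍(P))) (s := (Set.toFinite J).toFinset)
    (t := (Set.toFinite t).toFinset) (n := q ^ 2 - 1)
    (fun u hu => by
      rw [Set.Finite.mem_toFinset] at hu ⊢
      exact ⟨u, hJ' u hu, rfl⟩)
    ⟨g₀, (Set.Finite.mem_toFinset _).mpr ⟨g₀, hg₀, rfl⟩⟩ (by rw [← h2, mul_comm])
  obtain ⟨u, hu⟩ := Finset.card_pos.mp (hq2.trans_le h3)
  simp only [Finset.mem_filter, Set.Finite.mem_toFinset] at hu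
  obtain ⟨huu, hu1⟩ := hJ u hu.1
  set D := 𝐍(P) ⊓ u •ᶜ 𝐍(P) with hD
  have h4 : ∀ v ∈ D, v * v = 1 → v = 1 := fun v hv => h.eq_one_of_not_col (hJ' u hu.1) hv
  have h5 : u ∈ 𝐍(D) := mem_norm_inf huu _
  have h6 : ∀ m ∈ D, u * m * u = m⁻¹ := fun m hm => h.cit.inverts huu hu1 h5 h4 hm
  refine ⟨D, inf_le_left, fun a ha => mem_cent.mpr fun b hb => ?_,
    le_antisymm (Nat.le_of_dvd hq2 ?_) ?_⟩
  · rw [← inv_inj, ← h6 _ (D.mul_mem hb ha), mul_inv_rev, ← h6 a ha, ← h6 b hb]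
    calc _ = u * b * (u * u) * a * u := by rw [huu]; group
      _ = _ := by group
  · have ho : Odd (Nat.card D) := Nat.not_even_iff_odd.mp fun he => by
      obtain ⟨v, hv, h7, h8⟩ := Suz.exists_invol_of_even he
      exact h7 (h4 v hv h8)
    obtain ⟨n, hn⟩ := h.exists_two_pow
    refine Nat.Coprime.dvd_of_dvd_mul_left (m := q ^ 3) ?_
      (h.card_H ▸ card_dvd_of_le (inf_le_left : D ≤ 𝐍(P)))
    rw [hn]
    exact ((Nat.coprime_two_right.mpr ho).pow_right _).pow_right _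
  · refine h3.trans ?_
    rw [← Nat.card_eq_finsetCard]
    refine Nat.card_le_card_of_injective (fun v => ⟨u * v, ?_⟩) fun v w e => ?_
    · have hv := v.2
      simp only [Finset.mem_filter, Set.Finite.mem_toFinset] at hv
      have h7 := QuotientGroup.eq.mp (hu.2.trans hv.2.symm)
      rw [Invol.inv_eq huu] at h7
      refine ⟨h7, mem_cj.mpr ?_⟩
      have h8 := inv_mem h7
      rw [mul_inv_rev, Invol.inv_eq huu, Invol.inv_eq (hJ _ hv.1).1] at h8
      simpa using h8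
    · exact Subtype.ext (mul_left_cancel (congrArg Subtype.val e : u * v = u * w))

/-- No nontrivial element of odd order normalizes all Sylow subgroups of a parabolic. -/
theorem cit_not_all (hG : CIT K) {D T : Subgroup K} (h : Par D) (hT : Syl T D) {x : K}
    (hx : x ∈ 𝐍(D)) (ho : Odd (orderOf x)) (h1 : x ≠ 1)
    (H : ∀ g ∈ 𝐍(D), g⁻¹ * x * g ∈ 𝐍(T)) : False := by
  obtain ⟨g, hg, hne⟩ := h.exists_cj_ne hT
  have hT' := hT.cj hg
  refine h.not_le hT fun t ht => ?_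
  have h2 : x ∈ 𝐍(T) := by simpa using H 1 (one_mem _)
  have h3 : t * x * t⁻¹ * x⁻¹ ∈ T := by
    have := T.mul_mem ht (cmem h2 (T.inv_mem ht))
    simpa [mul_assoc] using this
  have h4 : t * x * t⁻¹ * x⁻¹ ∈ 𝐍(g •ᶜ T) := by
    rw [norm_cj, mem_cj]
    have := mul_mem (H _ (mul_mem (inv_mem (hT.le ht)) hg)) (inv_mem (H g hg))
    convert this using 1
    group
  have h5 := h.ti.mem hT hT' hne.symm h3
    (hT'.mem_of_two (two_of_mem hT.isPGroup h3) (hT.le h3) h4)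
  obtain ⟨d, hd, e⟩ := exists_conj_eq_mul hx (hG.fpf h.p2 ho h1) h5
  have h6 := hG.fpf hT.isPGroup ho h1 (d⁻¹ * t) (T.mul_mem (T.inv_mem (h.le_syl hT hd)) ht) (by
    calc d⁻¹ * t * x = d⁻¹ * (t * x * t⁻¹ * x⁻¹ * x) * t := by group
      _ = _ := by rw [← e]; group)
  exact inv_mul_eq_one.mp h6 ▸ hd

theorem cit_col (h : Big P L 4) (g : K) : g ∈ Col P L := by
  refine (cit_col_or h).resolve_right ?_ g
  rintro ⟨D, hD, hc, h15⟩
  haveI := Fact.mk Nat.prime_three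
  haveI := Fact.mk Nat.prime_five
  obtain ⟨x, hx⟩ := exists_prime_orderOf_dvd_card' (G := D) 3 (by rw [h15]; norm_num)
  obtain ⟨y, hy⟩ := exists_prime_orderOf_dvd_card' (G := D) 5 (by rw [h15]; norm_num)
  rw [← orderOf_coe] at hx hy
  have hxy : (y : K) * x = x * y := mem_cent.mp (hc x.2) y y.2
  have hB := h.card_B
  have hH := h.card_H
  norm_num at hB hH
  obtain ⟨R, hR⟩ := IsSylowIn.exists_in (p := 3) 𝐍(P ⊔ L)
  have hR' : IsSylowIn 3 R 𝐍(P) := ⟨hR.le.trans h.norm_le, hR.isPGroup, by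
    rw [← relIndex_mul_relIndex R _ _ hR.le h.norm_le]
    have h1 := card_mul_relIndex h.norm_le
    rw [hB, hH] at h1
    rw [show 𝐍(P ⊔ L).relIndex 𝐍(P) = 5 by omega]
    exact fun e => hR.not_dvd ((Nat.Coprime.dvd_mul_right (by norm_num)).mp e)⟩
  obtain ⟨c, hc', h1⟩ := hR'.exists_conj_le (Q := zpowers (x : K))
    (IsPGroup.of_card (n := 1) (by rw [Nat.card_zpowers, hx, pow_one])) (zpowers_le.mpr (hD x.2))
  have h2 : c * x * c⁻¹ ∈ 𝐍(P ⊔ L) := hR.le (h1 (cj_mem (mem_zpowers _)))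
  have h3 : c * y * c⁻¹ * (c * x * c⁻¹) = c * x * c⁻¹ * (c * y * c⁻¹) := by
    calc _ = c * (y * x) * c⁻¹ := by group
      _ = _ := by rw [hxy]; group
  have h4 : orderOf (c * x * c⁻¹) = 3 := by rw [orderOf_conj, hx]
  have h5 : orderOf (c * y * c⁻¹) = 5 := by rw [orderOf_conj, hy]
  have h6 : c * y * c⁻¹ ∈ 𝐍(P) := cmem (le_normalizer hc') (hD y.2)
  generalize c * x * c⁻¹ = a at h2 h3 h4
  generalize c * y * c⁻¹ = b at h3 h5 h6
  let f : zpowers b × 𝐍(P ⊔ L) → 𝐍(P) := fun p =>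
    ⟨p.1 * p.2, mul_mem (zpowers_le.mpr h6 p.1.2) (h.norm_le p.2.2)⟩
  have hf : Function.Injective f := by
    rintro ⟨u, m⟩ ⟨v, n⟩ e
    have e1 : (u : K) * m = v * n := congrArg Subtype.val e
    have e2 : (v : K)⁻¹ * u = n * (m : K)⁻¹ := by
      calc _ = (v : K)⁻¹ * (u * m) * (m : K)⁻¹ := by group
        _ = _ := by rw [e1]; group
    have e3 : (v : K)⁻¹ * u = 1 := by
      have d1 := (zpowers b).orderOf_dvd_natCard (mul_mem (inv_mem v.2) u.2)
      have d2 := 𝐍(P ⊔ L).orderOf_dvd_natCard (mul_mem n.2 (inv_mem m.2))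
      rw [← e2, hB] at d2
      rw [Nat.card_zpowers, h5] at d1
      exact orderOf_eq_one_iff.mp (Nat.eq_one_of_dvd_coprimes (by norm_num) d1 d2)
    have e4 : u = v := Subtype.ext (inv_mul_eq_one.mp e3).symm
    subst e4
    rw [Subtype.ext (mul_left_cancel e1)]
  have hs := ((Nat.bijective_iff_injective_and_card f).mpr ⟨hf, by
    rw [Nat.card_prod, Nat.card_zpowers, h5, hB, hH]⟩).2
  refine cit_not_all h.cit h.l.toPar h.l.syl (h.norm_le h2) (by rw [h4]; decide)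
    (by rintro rfl; simp at h4) fun g hg => ?_
  obtain ⟨⟨⟨_, i, rfl⟩, n⟩, e⟩ := hs ⟨g, hg⟩
  have e1 : b ^ i * n = g := congrArg Subtype.val e
  have e2 : b ^ i * a = a * b ^ i := (Commute.zpow_left (show Commute b a from h3) i).eq
  have := cmem (le_normalizer (inv_mem n.2)) h2
  rw [← e1]
  convert this using 1
  calc _ = (n : K)⁻¹ * (b ^ i)⁻¹ * (a * b ^ i) * n := by group
    _ = _ := by rw [← e2]; group

/-- In a (CIT)-group with `HTh`, `Ω₁(Z(S))` has order at most four. -/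
theorem cit_omZ_le (hG : CIT K) (hs : ¬ Group.IsSolvable K) (hT : HTh K) {S V : Subgroup K}
    (hS : IsSylowIn 2 S ⊤) (hV : V ≤ OmZ S) : Nat.card V ≤ 4 := by
  obtain ⟨w, hw1, hw2⟩ : ∃ w : K, (orderOf w).Prime ∧ orderOf w ≠ 2 := by
    by_contra! hc
    refine hs ?_
    have : IsPGroup 2 K := by
      rw [IsPGroup.iff_card]
      refine ⟨_, Nat.eq_prime_pow_of_unique_prime_dvd Nat.card_pos.ne' fun {d} hd h1 => ?_⟩
      haveI := Fact.mk hd
      obtain ⟨w, hw⟩ := exists_prime_orderOf_dvd_card' d h1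
      exact hw ▸ hc w (hw ▸ hd)
    haveI := this.isNilpotent
    infer_instance
  obtain ⟨σ, Θ, h, hw⟩ := hT w hw1 hw2
  obtain ⟨Q, hQ⟩ := h.exists_sylow
  obtain ⟨c, -, hc⟩ := (IsSylowIn.sylow_top Q).exists_conj_eq hS
  have h1 : c •ᶜ V ≤ OmZ (Q : Subgroup K) := by
    rintro _ ⟨v, hv, rfl⟩
    obtain ⟨h1, h2, h3⟩ := hV hv
    refine ⟨hc ▸ cj_mem h1, ?_, Invol.conj_mul_self h3 c⟩
    rw [← hc, centralizer_map_conj]
    exact cj_mem h2
  have h2 := h.card_le_sq (OmZ_sq (Q : Subgroup K)) (fun x hx => ⟨hQ x hx.1,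
    mem_cent.mpr fun y hy => by
      have := congrArg σ (mem_cent.mp hx.2.1 _ (hQ y hy))
      rwa [map_mul, map_mul, h.sq] at this,
    by rw [← map_mul, hx.2.2, map_one]⟩)
  have h3 : Nat.card ↥(OmZ (Q : Subgroup K) ⊓ σ.toMonoidHom.eqLocus (MonoidHom.id K)) ≤ 2 := by
    set F := OmZ (Q : Subgroup K) ⊓ σ.toMonoidHom.eqLocus (MonoidHom.id K)
    by_contra! h3
    obtain ⟨a, b, ha1, hb1, hab⟩ : ∃ a b : F, a ≠ 1 ∧ b ≠ 1 ∧ a ≠ b := by
      haveI := Fintype.ofFinite F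
      rw [Nat.card_eq_fintype_card, Fintype.two_lt_card_iff] at h3
      obtain ⟨a, b, d, h4, h5, h6⟩ := h3
      by_cases e1 : a = 1
      · exact ⟨b, d, e1 ▸ h4.symm, e1 ▸ h5.symm, h6⟩
      by_cases e2 : b = 1
      · exact ⟨a, d, e1, e2 ▸ h6.symm, h5⟩
      · exact ⟨a, b, e1, e2, h4⟩
    obtain ⟨u, hu, h4, h5⟩ := hG.exists_inv_of_norm a.2.1.2.2 b.2.1.2.2
      (fun e => ha1 (Subtype.ext e)) (fun e => hb1 (Subtype.ext e))
      (fun e => hab (Subtype.ext e)) (comm_of_sq (OmZ_sq _) a.2.1 b.2.1)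
      (h.mem_normalizer a.2.2) (h.mem_normalizer b.2.2)
      (ne_bot_of_mem hw (by rintro rfl; exact hw1.one_lt.ne' (orderOf_one)))
    exact h4 (Invol.eq_one_of_odd ((h.mem u).1 hu).2 h5)
  have h4 := card_le_of_le h1
  rw [card_map_conj] at h4
  nlinarith

/-- With independent Sylow subgroups all involutions of `S` are central. -/
theorem cit_ti (hG : CIT K) (hs : ¬ Group.IsSolvable K) (h0 : Loc (⊥ : Subgroup K))
    (h : TIm (⊥ : Subgroup K)) {S : Subgroup K} (hS : IsSylowIn 2 S ⊤) {t : K} (ht : t ∈ S)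
    (htt : t * t = 1) : t ∈ OmZ S := by
  refine ⟨ht, ?_, htt⟩
  by_cases h1 : t = 1
  · exact h1 ▸ one_mem _
  have hS' : Syl S ⊥ := by rwa [Syl, norm_bot]
  have top : ∀ g : K, g ∈ 𝐍((⊥ : Subgroup K)) := fun g => by rw [norm_bot]; exact mem_top g
  obtain ⟨z, hz, hz1, hzz, hzc⟩ := exists_syl_inv hs hS
  obtain ⟨k, hk⟩ : ∃ k, k ∉ 𝐍(S) := by
    by_contra! h2
    exact hz1 (h0.core S hS.isPGroup (fun g _ => top g) (fun g _ => h2 g) hz)
  have key : ∀ g : K, g * z * g⁻¹ ∈ S → g ∈ 𝐍(S) := fun g e =>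
    mem_norm (h.cj_eq hS' (top g) hz hz1 e)
  have hz' := Invol.conj_mul_self hzz k
  rcases hG.two_or_odd (k * z * k⁻¹ * t) with h5 | h5
  · obtain ⟨Q, h6, h7⟩ := Invol.exists_sylow_of_isPGroup hz' htt h5
    exact absurd (key k (h.le hS' Q.isPGroup' (fun g _ => top g) h7 ht h1 h6)) hk
  · obtain ⟨s, -, e⟩ := Invol.exists_conj_of_odd hz' htt h5
    have e' : s * k * z * (s * k)⁻¹ = t := by rw [← e]; group
    exact e' ▸ cmem (norm_le_norm_cent S (key _ (e' ▸ ht))) hzc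

/-- A simple (CIT)-group of `2`-rank at least three does not satisfy `HTh`. -/
theorem cit_false (hs : IsSimpleGroup K) (hna : ¬ IsMulCommutative K) (hG : CIT K)
    (h8 : ∃ B : Subgroup K, SE.E8 B) (hT : HTh K) : False := by
  have h1 := BSW.not_isSolvable_of_simple hna
  have h0 : Loc (⊥ : Subgroup K) := loc_bot_of_pCore
    ((hs.eq_bot_or_eq_top_of_normal _ inferInstance).resolve_right fun e => h1 (by
      have h2 := pCore_isPGroup (G := K) 2
      rw [e] at h2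
      haveI := (h2.of_equiv topEquiv).isNilpotent
      infer_instance))
  obtain ⟨B, hB⟩ := h8
  have key : ∀ S : Subgroup K, IsSylowIn 2 S ⊤ → ∃ A ≤ S, SE.E8 A := fun S hS => by
    obtain ⟨c, -, hc⟩ := hS.exists_conj_le (isPGroup_of_sq fun a ha => by rw [← sq]; exact hB.1.2 a ha) le_top
    exact ⟨_, hc, hB.conj c⟩
  rcases hG.tIm_or_amal h0 with h | ⟨P, L, q, h⟩
  · obtain ⟨S, hS⟩ := IsSylowIn.exists_in (p := 2) (⊤ : Subgroup K)
    obtain ⟨A, hA, h2⟩ := key S hS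
    have h3 := cit_omZ_le hG h1 hT hS fun a ha => cit_ti hG h1 h0 h hS (hA ha)
      (by rw [← sq]; exact h2.1.2 a ha)
    have := h2.2
    omega
  rcases h.l.two_le.eq_or_lt with rfl | hq
  · obtain ⟨S, h2, hS⟩ := IsSylowIn.exists_ge h.l.syl.isPGroup (le_top : P ⊔ L ≤ ⊤)
    obtain ⟨a, -, ha⟩ := h.l.exists_cent_four hG hS.isPGroup S.subtype S.subtype_injective
      (by rw [range_subtype]; exact le_sup_left.trans h2)
    obtain ⟨n, x, y, hxy⟩ := PGrp.isDQSD_of_card_centralizer hS.isPGroup (h.not_comm hG h2) ha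
    obtain ⟨A, hA, h3⟩ := key S hS
    have h4 := hxy.pRankLE_two (A.subgroupOf S) (by have := h3.1.1; infer_instance)
      fun a ha => Subtype.ext (h3.1.2 a ha)
    rw [card_subgroupOf_of_le hA] at h4
    have := h3.2
    omega
  have hb : Big P L q := ⟨h, hG, hq, h.syl_top hG h0 hq⟩
  have h2 := cit_omZ_le hG h1 hT hb.top (V := P ⊓ L) fun v hv =>
    ⟨mem_sup_left hv.1, le_centralizer_iff.mp h.le_cent hv, h.l.sq v hv.1⟩
  rw [h.l.cardZ] at h2
  obtain rfl : q = 4 := by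
    obtain ⟨n, rfl⟩ := hb.exists_two_pow
    have h3 : 1 < n := (Nat.pow_lt_pow_iff_right one_lt_two).mp (by simpa using hq)
    exact le_antisymm h2 (Nat.pow_le_pow_right two_pos h3)
  refine seven_false hT (Or.inr ⟨by rw [hb.card_G (cit_col hb)]; norm_num, fun t ht => ?_⟩)
  obtain ⟨z, hz, hz1⟩ := h.l.exists_mem
  obtain ⟨g, rfl⟩ := hb.conj hz hz1 (u := t) (by rw [← sq, ← ht, pow_orderOf_eq_one])
    (by rintro rfl; simp at ht)
  rw [cent1_conj, card_map_conj, hb.cent_eq hz hz1, h.card_T]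
  norm_num

end CfsgLib.IG
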